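import Cfsg.Agent.H16.J4B
import Cfsg.Agent.H16.Abs
import Cfsg.Agent.H17.Grp2
import Cfsg.Prelude.Def_Sporadic

/-! Tools for the shape of an involution centraliser. -/

set_option autoImplicit false

namespace Cfsg.Agent.H16

open MulAction H17 Cfsg

noncomputable def apW (o : Ops) (S u : List ℕ) (v : ℕ) : ℕ :=
  List.rec (motive := fun _ => ℕ) v (fun x _ ih => force ih fun y => o.ap (nth o.one S x) y) u

noncomputable def ascB (f : ℕ → ℕ) (L : List ℕ) : ℕ → ℕ → Bool :=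
  List.rec (motive := fun _ => ℕ → ℕ → Bool) (fun lo hi => Nat.ble lo hi)
    (fun u _ ih lo hi => force (f u) fun v => andB (Nat.blt lo v) (ih v hi)) L

def Asc (f : ℕ → ℕ) (m lo hi : ℕ) : Prop :=
  lo ≤ hi ∧ ∃ s : Finset ℕ, s.card = m ∧ ∀ v ∈ s, lo < v ∧ v ≤ hi ∧ ∃ u, f u = v

theorem Asc.add {f : ℕ → ℕ} {m n a b c : ℕ} (h1 : Asc f m a b) (h2 : Asc f n b c) : Asc f (m + n) a c := by
  obtain ⟨l1, s, rfl, hs⟩ := h1
  obtain ⟨l2, t, rfl, ht⟩ := h2
  refine ⟨l1.trans l2, s ∪ t, Finset.card_union_of_disjoint (Finset.disjoint_left.mpr fun v h1 h2 =>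
    absurd (ht v h2).1 (not_lt.mpr (hs v h1).2.1)), fun v hv => ?_⟩
  rcases Finset.mem_union.mp hv with h | h
  exacts [⟨(hs v h).1, (hs v h).2.1.trans l2, (hs v h).2.2⟩, ⟨l1.trans_lt (ht v h).1, (ht v h).2⟩]

theorem ascB_spec {f : ℕ → ℕ} : ∀ (L : List ℕ) {lo hi : ℕ}, ascB f L lo hi = true → Asc f L.length lo hi
  | [], _, _, h => ⟨Nat.le_of_ble_eq_true h, ∅, rfl, by simp⟩
  | u :: L, lo, hi, h => by
    change force (f u) (fun v => andB (Nat.blt lo v) (ascB f L v hi)) = true at h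
    rw [force_eq, andB_iff, Nat.blt_eq] at h
    rw [List.length_cons, add_comm]
    exact Asc.add ⟨h.1.le, {f u}, rfl, fun v hv => by
      rw [Finset.mem_singleton.mp hv]; exact ⟨h.1, le_rfl, u, rfl⟩⟩ (ascB_spec L h.2)

noncomputable def dfs (o : Ops) (C : List ℕ) (k : ℕ → List ℕ → Bool) (n : ℕ) : ℕ → List ℕ → Bool :=
  Nat.rec (motive := fun _ => ℕ → List ℕ → Bool) k
    (fun i ih v u => andB (ih v u) (force (o.ap (nth o.one C i) v) fun v' => ih v' (i :: u))) n

def prods {G : Type} [Group G] (g : ℕ → G) : ℕ → Set G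
  | 0 => {1}
  | n + 1 => {y | y ∈ prods g n ∨ ∃ y' ∈ prods g n, y = y' * g n}

theorem prods_mul {G : Type} [Group G] {g : ℕ → G} (h2 : ∀ i, g i * g i = 1) (hc : ∀ i j, g i * g j = g j * g i) :
    ∀ n, ∀ i < n, ∀ y ∈ prods g n, y * g i ∈ prods g n
  | 0, _, h, _, _ => absurd h (by omega)
  | n + 1, i, hi, y, hy => by
    rcases (Nat.lt_succ_iff_lt_or_eq.mp hi) with h | rfl
    · rcases hy with hy | ⟨y', hy, rfl⟩
      exacts [Or.inl (prods_mul h2 hc n i h y hy), Or.inr ⟨_, prods_mul h2 hc n i h y' hy, by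
        rw [mul_assoc, hc, mul_assoc]⟩]
    · rcases hy with hy | ⟨y', hy, rfl⟩
      exacts [Or.inr ⟨y, hy, rfl⟩, Or.inl (by rwa [mul_assoc, h2, mul_one])]

theorem one_mem_prods {G : Type} [Group G] (g : ℕ → G) : ∀ n, (1 : G) ∈ prods g n
  | 0 => rfl
  | n + 1 => Or.inl (one_mem_prods g n)

theorem mem_prods {G : Type} [Group G] {g : ℕ → G} (h2 : ∀ i, g i * g i = 1) (hc : ∀ i j, g i * g j = g j * g i)
    {n : ℕ} {S : Set G} (hS : ∀ a ∈ S, ∃ i < n, g i = a) {y : G} (hy : y ∈ Subgroup.closure S) : y ∈ prods g n := by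
  induction hy using Subgroup.closure_induction_right with
  | one => exact one_mem_prods g n
  | mul_right x _ a ha ih => obtain ⟨i, hi, rfl⟩ := hS a ha; exact prods_mul h2 hc n i hi x ih
  | mul_inv_cancel x _ a ha ih =>
    obtain ⟨i, hi, rfl⟩ := hS a ha
    rw [inv_eq_of_mul_eq_one_right (h2 i)]; exact prods_mul h2 hc n i hi x ih

section
variable {o : Ops} {G Ω : Type} [Group G] [MulAction G Ω] {M : Mdl o G Ω} {S : List ℕ} {g : ℕ → G}

theorem Mdl.P_apW (h : ∀ i, M.R (nth o.one S i) (g i)) {v : ℕ} {ω : Ω} (p : M.P v ω) :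
    ∀ u, M.P (apW o S u v) (ev g u • ω)
  | [] => by rw [ev_nil, one_smul]; exact p
  | x :: u => by
    rw [ev_cons, mul_smul]
    change M.P (force (apW o S u v) fun y => o.ap (nth o.one S x) y) _
    rw [force_eq]; exact M.P_ap (h x) (Mdl.P_apW h p u)

theorem dfs_spec (h : ∀ i, M.R (nth o.one S i) (g i)) {k : ℕ → List ℕ → Bool} {ω : Ω} : ∀ (n v : ℕ) (u : List ℕ),
    M.P v (ev g u • ω) → dfs o S k n v u = true → ∀ y ∈ prods g n,
      ∃ v' u', M.P v' (ev g u' • ω) ∧ ev g u' = y * ev g u ∧ k v' u' = true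
  | 0, v, u, p, e, y, hy => ⟨v, u, p, by rw [show y = 1 from hy, one_mul], e⟩
  | n + 1, v, u, p, e, y, hy => by
    change andB (dfs o S k n v u) (force (o.ap (nth o.one S n) v) fun v' => dfs o S k n v' (n :: u)) = true at e
    rw [andB_iff, force_eq] at e
    rcases hy with hy | ⟨y', hy, rfl⟩
    · exact dfs_spec h n v u p e.1 y hy
    · have := dfs_spec h n _ (n :: u) (by rw [ev_cons, mul_smul]; exact M.P_ap (h n) p) e.2 y' hy
      rwa [ev_cons, ← mul_assoc] at this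

end

def xsA {G : Type} [Group G] (z : G) (q : ℕ → G) (k : ℕ) : Subgroup G := Subgroup.closure {a | a = z ∨ ∃ i < k, q i = a}

theorem xs_chain {G : Type} [Group G] [Finite G] {z : G} {q : ℕ → G} {n : ℕ} (hz : ∀ x, z * x = x * z) (h1 : z ≠ 1)
    (h2 : z * z = 1) (hn : ∀ i < n, i ^^^ 1 < n) (h0 : 0 < n) (hq : ∀ i < n, q i * q i = 1)
    (hc : ∀ i < n, ∀ j < n, j ≠ i ^^^ 1 → q i * q j = q j * q i)
    (hp : ∀ i < n, q i * q (i ^^^ 1) = z * (q (i ^^^ 1) * q i)) :
    Nat.card (xsA z q n) = 2 ^ (n + 1) ∧ ESData (xsA z q n) z := by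
  classical
  have : Fact (Nat.Prime 2) := ⟨Nat.prime_two⟩
  have oz : orderOf z = 2 := orderOf_eq_prime (by rw [sq, h2]) h1
  have hZ : ∀ a, a ∈ Subgroup.zpowers z ↔ a = 1 ∨ a = z := fun a => by
    rw [mem_zpowers_iff_mem_range_orderOf, oz]
    simp [Finset.range_add_one, eq_comm, or_comm]
  have : (Subgroup.zpowers z).Normal := ⟨fun a ha b => by
    rcases (hZ a).mp ha with rfl | rfl
    exacts [by simp, by rw [← hz, mul_inv_cancel_right]; exact ha]⟩
  let π := QuotientGroup.mk' (Subgroup.zpowers z)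
  have hπ : ∀ a b, π a = π b → a = b ∨ a = z * b := fun a b h => by
    rcases (hZ _).mp (QuotientGroup.eq.mp h.symm) with e | e
    exacts [Or.inl (inv_mul_eq_one.mp e).symm, Or.inr (by rw [hz, ← e, mul_inv_cancel_left])]
  have πz : π z = 1 := (QuotientGroup.eq_one_iff _).mpr (Subgroup.mem_zpowers z)
  have mz : ∀ k, z ∈ xsA z q k := fun k => Subgroup.subset_closure (Or.inl rfl)
  have mq : ∀ k, ∀ i < k, q i ∈ xsA z q k := fun k i hi => Subgroup.subset_closure (Or.inr ⟨i, hi, rfl⟩)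
  have mono : ∀ {k l}, k ≤ l → xsA z q k ≤ xsA z q l := fun h => Subgroup.closure_mono fun a ha =>
    ha.imp id fun ⟨i, hi, e⟩ => ⟨i, hi.trans_le h, e⟩
  have le : ∀ {k} {K : Subgroup G}, z ∈ K → (∀ i < k, q i ∈ K) → xsA z q k ≤ K := fun hz hq =>
    (Subgroup.closure_le _).mpr (by rintro _ (rfl | ⟨i, hi, rfl⟩); exacts [hz, hq i hi])
  have c1 : ∀ j < n, ∀ x ∈ xsA z q n, π x * π (q j) = π (q j) * π x := fun j hj x hx =>
    (le (K := (Subgroup.centralizer {π (q j)}).comap π) (by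
      rw [Subgroup.mem_comap, πz]; exact Subgroup.one_mem _) (fun i hi => Subgroup.mem_centralizer_singleton_iff.mpr (by
        by_cases e : j = i ^^^ 1
        · rw [e, ← map_mul, hp i hi, map_mul, πz, one_mul, map_mul]
        · rw [← map_mul, hc i hi j hj e, map_mul])) hx _ rfl).symm
  have c2 : ∀ x ∈ xsA z q n, ∀ y ∈ xsA z q n, π y * π x = π x * π y := fun x hx y hy =>
    (le (K := (Subgroup.centralizer {π x}).comap π) (by
      rw [Subgroup.mem_comap, πz]; exact Subgroup.one_mem _) (fun i hi => Subgroup.mem_centralizer_singleton_iff.mpr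
        (c1 i hi x hx).symm) hy _ rfl).symm
  have c3 : ∀ x ∈ xsA z q n, π x * π x = 1 := fun x hx => by
    induction hx using Subgroup.closure_induction with
    | mem a ha =>
      rcases ha with rfl | ⟨i, hi, rfl⟩
      exacts [by rw [πz, one_mul], by rw [← map_mul, hq i hi, map_one]]
    | one => simp
    | mul a b ha hb e1 e2 => rw [map_mul, mul_assoc, ← mul_assoc (π b), c2 a ha b hb, mul_assoc, e2, mul_one, e1]
    | inv a _ e => rw [map_inv, ← mul_inv_rev, e, inv_one]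
  have nc : ∀ i < n, q i * q (i ^^^ 1) ≠ q (i ^^^ 1) * q i := fun i hi e => h1 (by
    have := hp i hi
    rw [e] at this
    exact mul_eq_right.mp this.symm)
  have key : ∀ k ≤ n, Nat.card (xsA z q k) = 2 ^ (k + 1) ∧
      ∀ y ∈ xsA z q k, (∀ i < k, y * q (i ^^^ 1) = q (i ^^^ 1) * y) → y = 1 ∨ y = z := fun k => by
    induction k with
    | zero =>
      have e : xsA z q 0 = Subgroup.zpowers z := le_antisymm (le (Subgroup.mem_zpowers z) fun i hi => absurd hi (by omega))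
        (Subgroup.zpowers_le.mpr (mz 0))
      exact fun _ => ⟨by rw [e, Nat.card_zpowers, oz]; rfl, fun y hy _ => (hZ y).mp (e ▸ hy)⟩
    | succ k ih =>
      intro hk
      obtain ⟨i1, i2⟩ := ih (by omega)
      have cc : ∀ y ∈ xsA z q k, y * q (k ^^^ 1) = q (k ^^^ 1) * y := fun y hy =>
        (le (K := Subgroup.centralizer {q (k ^^^ 1)}) (Subgroup.mem_centralizer_singleton_iff.mpr (hz _))
          (fun i hi => Subgroup.mem_centralizer_singleton_iff.mpr (hc i (by omega) _ (hn k hk) fun e =>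
            absurd (Nat.xor_left_injective e : k = i) (by omega))) hy _ rfl).symm
      have hN : ∀ x ∈ xsA z q k, q k * x * (q k)⁻¹ ∈ xsA z q k := fun x hx => by
        rcases hπ (q k * x * (q k)⁻¹) x (by
          rw [map_mul, map_mul, ← c1 k hk x (mono (by omega) hx), map_inv, mul_inv_cancel_right]) with e | e
        exacts [e.symm ▸ hx, e.symm ▸ Subgroup.mul_mem _ (mz k) hx]
      have h2' : q k * q k ∈ xsA z q k := by rw [hq k hk]; exact Subgroup.one_mem _
      have l1 : xsA z q (k + 1) ≤ ext2 _ (q k) hN h2' := le (le_ext2 (mz k)) fun i hi => by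
        rcases Nat.lt_succ_iff_lt_or_eq.mp hi with h | rfl
        exacts [le_ext2 (mq k i h), mem_ext2]
      refine ⟨?_, fun y hy h => ?_⟩
      · have a1 := (Subgroup.card_le_of_le l1).trans card_ext2_le.2
        obtain ⟨c, a2⟩ := Subgroup.card_dvd_of_le (mono (Nat.le_succ k))
        have a3 : Nat.card (xsA z q (k + 1)) ≠ Nat.card (xsA z q k) := fun e => nc k hk (cc _
          ((Subgroup.eq_of_le_of_card_ge (mono (Nat.le_succ k)) e.le).symm ▸ mq _ k (Nat.lt_succ_self k)))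
        have a4 : 0 < Nat.card (xsA z q (k + 1)) := Nat.card_pos
        rw [a2, mul_comm 2] at a1
        have a5 := Nat.le_of_mul_le_mul_left a1 Nat.card_pos
        rw [a2] at a3 a4 ⊢
        interval_cases c
        exacts [absurd a4 (by simp), absurd (mul_one _) a3, by rw [i1, pow_succ _ (k + 1)]]
      · rcases l1 hy with e | e
        · exact i2 y e fun i hi => h i (by omega)
        · have := cc _ e
          rw [mul_assoc, h k (by omega), ← mul_assoc, ← mul_assoc] at this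
          exact absurd (mul_right_cancel this) (nc k hk)
  refine ⟨(key n le_rfl).1, mz n, h1, fun x _ => hz x, fun x hx => ?_, fun y hy h => (key n le_rfl).2 y hy fun i hi =>
    h _ (mq n _ (hn i hi)), _, mq n 0 h0, _, mq n _ (hn 0 h0), nc 0 h0⟩
  simpa using hπ (x * x) 1 (by rw [map_mul, c3 x hx, map_one])

def Shp (C : Type) [Group C] : Prop := ∃ (Q N M : Subgroup C), Q.Normal ∧ N.Normal ∧ Q ≤ N ∧ N ≤ M ∧ Nat.card Q = 2 ^ 13 ∧
  IsExtraspecial 2 Q ∧ Nat.card N = 3 * 2 ^ 13 ∧ M.index = 2 ∧ ∃ (_ : (N.subgroupOf M).Normal), IsM22 (M ⧸ N.subgroupOf M)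

theorem shp_of {C : Type} [Group C] [Finite C] {Q : Subgroup C} [hN : Q.Normal] (hQ : Nat.card Q = 2 ^ 13)
    (hX : IsExtraspecial 2 Q) {φ : C →* Equiv.Perm ℕ} (hk : Q ≤ φ.ker) {w a : C} (hw : w ∈ φ.ker) (h3 : orderOf w = 3)
    (ha : a * w * a⁻¹ * w ∈ Q) (hC : Nat.card C ≤ 24576 * 887040) (hl : 887040 ≤ Nat.card φ.range)
    (hs : Nat.card φ.range = 887040 → ∃ ζ : φ.range, (∀ N : Subgroup φ.range, N.Normal → N ≠ ⊥ → ζ ∈ N) ∧
      ∀ L : Subgroup φ.range, L.Normal → ζ ∈ L → 443520 ≤ Nat.card L) : Nat.card C = 24576 * 887040 ∧ Shp C := by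
  classical
  have : Fact (Nat.Prime 3) := ⟨Nat.prime_three⟩
  have e1 := φ.ker.card_mul_index
  rw [Subgroup.index_ker] at e1
  have l1 : Q ⊔ Subgroup.zpowers w ≤ φ.ker := sup_le hk (Subgroup.zpowers_le.mpr hw)
  have l2 : 24576 ≤ Nat.card ↥(Q ⊔ Subgroup.zpowers w) := Nat.le_of_dvd Nat.card_pos
    (Nat.Coprime.mul_dvd_of_dvd_of_dvd (m := 3) (n := 2 ^ 13) (by norm_num)
      (h3 ▸ Nat.card_zpowers w ▸ Subgroup.card_dvd_of_le le_sup_right) (hQ ▸ Subgroup.card_dvd_of_le le_sup_left))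
  have l3 := l2.trans (Subgroup.card_le_of_le l1)
  have e2 : Nat.card φ.ker = 24576 := by nlinarith
  have e3 : Nat.card φ.range = 887040 := by rw [e2] at e1; omega
  have e4 : Q ⊔ Subgroup.zpowers w = φ.ker := Subgroup.eq_of_le_of_card_ge l1 (e2 ▸ l2)
  let π := QuotientGroup.mk' Q
  have w1 : π w ≠ 1 := fun e => by
    have := Subgroup.orderOf_dvd_natCard Q ((QuotientGroup.eq_one_iff w).mp e)
    rw [h3, hQ] at this
    norm_num at this
  have w3 : π w ^ 3 = 1 := by rw [← map_pow, ← h3, pow_orderOf_eq_one, map_one]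
  have wi : (π w)⁻¹ = π w ^ 2 := inv_eq_of_mul_eq_one_right (by rw [← pow_succ', w3])
  have wn : π w ≠ (π w)⁻¹ := fun e => w1 (by rw [wi, sq] at e; exact mul_eq_left.mp e.symm)
  let M := (Subgroup.centralizer {π w}).comap π
  have hM : ∀ b, b ∈ M ↔ π b * π w * (π b)⁻¹ = π w := fun b =>
    Subgroup.mem_centralizer_singleton_iff.trans mul_inv_eq_iff_eq_mul.symm
  have hj : ∀ b, π b * π w * (π b)⁻¹ = π w ∨ π b * π w * (π b)⁻¹ = (π w)⁻¹ := fun b => by
    have h1 : π (b * w * b⁻¹) ∈ (Q ⊔ Subgroup.zpowers w).map π := ⟨_, e4 ▸ φ.normal_ker.conj_mem w hw b, rfl⟩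
    rw [Subgroup.map_sup, QuotientGroup.map_mk'_self, bot_sup_eq, MonoidHom.map_zpowers, map_mul, map_mul, map_inv,
      mem_zpowers_iff_mem_range_orderOf, orderOf_eq_prime w3 w1, Finset.mem_image] at h1
    obtain ⟨i, hi, e⟩ := h1
    rw [Finset.mem_range] at hi
    interval_cases i
    exacts [absurd (by simpa using e.symm) w1, Or.inl (e.symm.trans (pow_one _)), Or.inr (e.symm.trans wi.symm)]
  have ia : π a * π w * (π a)⁻¹ = (π w)⁻¹ := eq_inv_of_mul_eq_one_left (by
    rw [← map_inv, ← map_mul, ← map_mul, ← map_mul]; exact (QuotientGroup.eq_one_iff _).mpr ha)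
  have iM : M.index = 2 := Subgroup.index_eq_two_iff.mpr ⟨a, fun b => by
    have : π (b * a) * π w * (π (b * a))⁻¹ = (π b * π w * (π b)⁻¹)⁻¹ := by
      rw [map_mul, show π b * π a * π w * (π b * π a)⁻¹ = π b * (π a * π w * (π a)⁻¹) * (π b)⁻¹ by group, ia]; group
    rw [hM, hM, this]
    rcases hj b with e | e <;> rw [e]
    exacts [Or.inr ⟨rfl, wn.symm⟩, Or.inl ⟨inv_inv _, wn.symm⟩]⟩
  have hNM : φ.ker ≤ M := e4 ▸ sup_le (fun b hb => (hM b).mpr (by
    rw [show π b = 1 from (QuotientGroup.eq_one_iff b).mpr hb]; simp)) (Subgroup.zpowers_le.mpr ((hM w).mpr (by simp)))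
  have iK : (M.map φ.rangeRestrict).index = 2 :=
    (Subgroup.index_map_eq _ φ.rangeRestrict_surjective (φ.ker_rangeRestrict ▸ hNM)).trans iM
  have cK : Nat.card (M.map φ.rangeRestrict) = 443520 := by
    have := (M.map φ.rangeRestrict).card_mul_index
    rw [iK, e3] at this
    omega
  have : Finite φ.range := Finite.of_surjective _ φ.rangeRestrict_surjective
  obtain ⟨ζ, z1, z2⟩ := hs e3
  have nK := Subgroup.normal_of_index_eq_two iK
  have sK := simple_of_index_two iK (fun N hN h => by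
    have := z2 (N ⊓ M.map φ.rangeRestrict) inferInstance ⟨z1 N hN h, z1 _ nK fun e => by
      rw [e, Subgroup.card_bot] at cK; omega⟩
    exact (Subgroup.eq_of_le_of_card_ge inf_le_right (cK ▸ this)) ▸ inf_le_left)
    (cK ▸ not_isSquare_of_between (s := 665) (by norm_num) (by norm_num))
  have ek : φ.ker.subgroupOf M = (φ.rangeRestrict.subgroupMap M).ker := Subgroup.ext fun x =>
    ⟨fun h => Subtype.ext (Subtype.ext h), fun h => congrArg (fun y : M.map φ.rangeRestrict => y.1.1) h⟩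
  let e := (QuotientGroup.quotientMulEquivOfEq ek).trans
    (QuotientGroup.quotientKerEquivOfSurjective _ (φ.rangeRestrict.subgroupMap_surjective M))
  exact ⟨by rw [← e1, e2, e3], Q, φ.ker, M, hN, inferInstance, hk, hNM, hQ, hX, e2, iM, inferInstance, e.isSimpleGroup,
    (Nat.card_congr e.toEquiv).trans cK⟩

end Cfsg.Agent.H16
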