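import Cfsg.Agent.H16.J4S
import Cfsg.Agent.H16.K1
import Cfsg.Agent.H16.K2

/-! The centraliser of an involution in the matrix group. -/

set_option autoImplicit false
set_option maxRecDepth 100000

namespace Cfsg.Agent.H16.K3

open H17 J4M J4G MulAction Mdl K1 K2
open scoped Pointwise

def ZW : List (List ℕ) := [[0], [1], [2], [3], [4], [5], [6], [7], [8], [9], [10], [11], [0, 1, 0, 1]]
theorem zB : defB oW CQ ZW CZ 13 = true := by decide +kernel
noncomputable def eB (c : ℕ) (L : List En) : Bool := H17.allL L fun e => andB (Nat.blt e.2.2 77) (andB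
  (H16.force (evM oW SH e.2.1) fun k => H16.force (evM oW CE e.1) fun x => cjM oW k x cE0)
  (H16.force (apW oW SH e.2.1 (oW.ap c 1)) fun w => allB 112 fun j => iffB (tb (H17.nth 0 P j) e.2.2) (tb w j)))
theorem eE : allB 7 (fun j => eB (H16.nth oW.one CG j) (H17.nth [] en j)) = true := by decide +kernel

noncomputable def z : Γ := hE 0
theorem rz : MG.R cE0 z := R_beq (rE 0) (by decide +kernel)
theorem hE_sq (i : ℕ) : hE i * hE i = 1 := by
  by_cases hi : i < 11
  · exact isOne_spec (MG.R_mul (rE i) (rE i)) (allB_spec sqB i hi)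
  · rw [hE_triv i (by omega), mul_one]
theorem z_ne : z ≠ 1 := MG_ne rz (by norm_num) dQ.2.2.2.2.2.1
noncomputable def a : Γ := ev hH [0, 0, 0, 6, 3, 1, 6]
noncomputable def b : Γ := ev hH [0, 3, 7, 7, 0, 0, 3, 1, 6, 4, 4] * (t * ev hH [5, 5, 7])
theorem ra : MG.R cD0 a := R_beq (R_ev rH _) dA.1
theorem rb : MG.R cD2 b := R_beq (R_m3 (R_ev rH _) rt (R_ev rH _)) dA.2.2.1
attribute [irreducible] a b z
noncomputable def hD : ℕ → Γ := H17.nth 1 [a, a⁻¹, b, b⁻¹]
theorem rD0 : ∀ i, MG.R (H16.nth oW.one SD i) (hD i) :=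
  R_nth (.cons ra (.cons (R_inv ra dA.2.1) (.cons rb (.cons (R_inv rb dA.2.2.2.1) .nil))))
theorem invD : Inv 0 hD := fun i => by
  by_cases hi : i < 4
  · interval_cases i
    exacts [rfl, (inv_inv a).symm, rfl, (inv_inv b).symm]
  · have h1 : 4 ≤ i := by omega
    rw [hD, nth_of_ge (l := [a, a⁻¹, b, b⁻¹]) _ h1,
      nth_of_ge (l := [a, a⁻¹, b, b⁻¹]) _ (inv_ge (k := 0) (nc := 4) rfl (by omega) h1), inv_one]
noncomputable def DD : Subgroup Γ := Subgroup.closure (Set.range hD)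
theorem DD_le : DD ≤ Subgroup.centralizer {z} := (Subgroup.closure_le _).mpr (by
  rintro _ ⟨i, rfl⟩
  have ha : a ∈ Subgroup.centralizer {z} := Subgroup.mem_centralizer_singleton_iff.mpr
    (mul_inv_eq_iff_eq_mul.mp (cjM_spec ra rz rz dA.2.2.2.2.1))
  have hb : b ∈ Subgroup.centralizer {z} := Subgroup.mem_centralizer_singleton_iff.mpr
    (mul_inv_eq_iff_eq_mul.mp (cjM_spec rb rz rz dA.2.2.2.2.2))
  refine nth_prop (P := fun c => c ∈ Subgroup.centralizer {z}) (Subgroup.one_mem _) (fun c hc => ?_) i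
  simp only [List.mem_cons, List.not_mem_nil, or_false] at hc
  rcases hc with rfl | rfl | rfl | rfl
  exacts [ha, Subgroup.inv_mem _ ha, hb, Subgroup.inv_mem _ hb])
noncomputable def gD (i : ℕ) : DD := ⟨hD i, Subgroup.subset_closure ⟨i, rfl⟩⟩
noncomputable def MD : Mdl oW DD V112 := MG.sub DD
theorem rD : ∀ i, MD.R (H16.nth oW.one SD i) (gD i) := rD0
theorem gens : Gens 0 4 gD := ⟨fun i => Subtype.ext (invD i), fun i hi =>
  Subtype.ext (show hD i = 1 from nth_of_ge (l := [a, a⁻¹, b, b⁻¹]) _ hi), fun c => by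
  obtain ⟨u, hu⟩ := exists_word_of_mem_closure invD (S := Set.range hD) (by
    rintro _ ⟨i, rfl⟩; exact ⟨[i], mul_one _⟩) c.2
  exact ⟨u, Subtype.ext ((map_ev' DD.subtype (fun _ => rfl) u).trans hu)⟩⟩
theorem lenP : P.length ≤ 112 := by decide +kernel
theorem pl_smul {c x : ℕ} {g : DD} (r : MD.R c g) (e : plB D 112 P 112 c x = true) (i : ℕ) :
    g • plv 112 P i = plv 112 P (D.ρ x i) :=
  (MG_mat (g := g.1) r _).trans (plB_spec (n := 112) good.toShape (by norm_num) le_rfl lenP e i)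
theorem ex : ∃ φ, H17.Rep gD D φ ∧ (∀ c, ∀ i < 77, c • plv 112 P i = plv 112 P (φ c i)) ∧
    ∀ i < 77, ∀ j < 77, plv 112 P i = plv 112 P j → i = j := by
  refine rep_of_labels good gens _ (fun x i _ => lab_all good rfl gens (fun x hx i => ?_) x i)
    (plU_spec lenP pl.2.2.1) (trans_of_orb good pl.2.2.2.1)
  obtain e | e : 2 * x = 0 ∨ 2 * x = 2 := by change _ < 4 at hx; omega
  all_goals rw [e]
  exacts [pl_smul (g := gD 0) ra pl.1 i, pl_smul (g := gD 2) rb pl.2.1 i]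
noncomputable def φ : DD →* Equiv.Perm ℕ := ex.choose
theorem rep : H17.Rep gD D φ := ex.choose_spec.1
theorem lab : ∀ c, ∀ i < 77, c • plv 112 P i = plv 112 P (φ c i) := ex.choose_spec.2.1
theorem lab0 : plv 112 P 0 = wv 1 := plv_eq pl.2.2.2.2.1
theorem trans (i : ℕ) (hi : i < 77) : ∃ c, φ c 0 = i :=
  let ⟨u, hu⟩ := trans_of_orb good pl.2.2.2.1 i hi; ⟨ev gD u, by rw [rep.map_ev, hu]⟩
theorem kerB {c : ℕ} {g : DD} (r : MD.R c g) (e : plB D 112 P 112 c 4 = true) : g ∈ φ.ker := Equiv.ext fun i => by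
  by_cases hi : i < 77
  · refine ex.choose_spec.2.2 _ (rep.lt g hi) _ hi ?_
    rw [← lab g i hi, pl_smul r e, good.triv 4 le_rfl]
  · exact rep.fix g (not_lt.mp hi)

/-! ### the extraspecial subgroup -/

noncomputable def q0 : DD := ev gD [0, 3] ^ 4
noncomputable def w : DD := ev gD [0] ^ 10
theorem rq0 : MD.R cq q0 := R_beq (R_pow (R_ev rD _) 4) dQ.1
theorem rw' : MD.R K1.cw w := R_beq (R_pow (R_ev rD _) 10) dQ.2.1
attribute [irreducible] q0 w
noncomputable def q : ℕ → DD := H17.sub QW (H17.nth 1 [gD 0, gD 1, gD 2, gD 3, q0])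
theorem r0 : MD.R cD0 (gD 0) := ra
theorem r1 : MD.R cD1 (gD 1) := R_inv ra dA.2.1
theorem r2 : MD.R cD2 (gD 2) := rb
theorem r3' : MD.R cD3 (gD 3) := R_inv rb dA.2.2.2.1
theorem rq : ∀ i, MD.R (H16.nth oW.one CQ i) (q i) :=
  R_sub (S := [cD0, cD1, cD2, cD3, cq]) (R_nth (.cons r0 (.cons r1 (.cons r2 (.cons r3' (.cons rq0 .nil)))))) rfl rfl qB
theorem q_triv (i : ℕ) (hi : 12 ≤ i) : q i = 1 := sub_triv _ hi
attribute [irreducible] q
theorem rqz : ∀ i, MD.R (H16.nth oW.one CZ i) (H17.sub ZW q i) := R_sub rq rfl rfl zB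
noncomputable def zD : DD := H17.sub ZW q 12
theorem zD_val : zD.1 = z := R_fun (M := MG) (R_beq (rqz 12) (by decide +kernel)) rz
theorem rzD : MD.R cE0 zD := (zD_val ▸ rz : MG.R cE0 zD.1)
theorem zD_c (x : DD) : zD * x = x * zD := Subtype.ext (by
  rw [Subgroup.coe_mul, Subgroup.coe_mul, zD_val]; exact (Subgroup.mem_centralizer_singleton_iff.mp (DD_le x.2)).symm)
theorem zD_sq : zD * zD = 1 := Subtype.ext (by rw [Subgroup.coe_mul, zD_val, z]; exact hE_sq 0)
noncomputable def Q : Subgroup DD := xsA zD q 12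
theorem z_mem : zD ∈ Q := Subgroup.subset_closure (Or.inl rfl)
theorem q_mem (i : ℕ) : q i ∈ Q := by
  by_cases hi : i < 12
  · exact Subgroup.subset_closure (Or.inr ⟨i, hi, rfl⟩)
  · rw [q_triv i (by omega)]; exact Q.one_mem
theorem qz_mem (u : List ℕ) : ev (H17.sub ZW q) u ∈ Q := ev_mem fun _ _ => ev_mem fun i _ => q_mem i
theorem q_sq (i : ℕ) (hi : i < 12) : q i * q i = 1 :=
  isOne_spec (MD.R_mul (rq i) (rq i)) (andB_iff.mp (allB_spec cmB i hi)).1
theorem q_rel (i : ℕ) (hi : i < 12) (j : ℕ) (hj : j < i) :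
    q i * q j = (if j = i ^^^ 1 then zD else 1) * (q j * q i) := by
  have h := allB_spec (andB_iff.mp (allB_spec cmB i hi)).2 j hj
  rw [H16.force_eq] at h
  have r := MD.R_mul (rq i) (rq j)
  have e : q i * q j * (q i * q j) = if j = i ^^^ 1 then zD else 1 := MD.eq_of (MD.R_mul r r) (by
    rw [ifB_eq]
    by_cases c : j = i ^^^ 1
    · rw [if_pos c, if_pos (show Nat.beq j (Nat.xor i 1) = true from Nat.beq_eq.mpr c)]; exact rzD
    · rw [if_neg c, if_neg fun e : Nat.beq j (Nat.xor i 1) = true => c (Nat.beq_eq.mp e)]; exact MD.R_one) h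
  rw [← e, mul_assoc (q i * q j), mul_assoc (q i) (q j) (q j * q i), ← mul_assoc (q j) (q j), q_sq j (by omega), one_mul,
    q_sq i hi, mul_one]
theorem xs : Nat.card Q = 2 ^ (12 + 1) ∧ ESData Q zD := by
  have h1 : ∀ i < 12, ∀ j < 12, (j = i ^^^ 1 ↔ i = j ^^^ 1) := by decide
  have h2 : ∀ i < 12, i ^^^ 1 < 12 ∧ i ^^^ 1 ≠ i := by decide
  refine xs_chain zD_c (fun e => z_ne (zD_val ▸ congrArg Subtype.val e)) zD_sq (fun i hi => (h2 i hi).1) (by norm_num) q_sq
    (fun i hi j hj e => ?_) fun i hi => ?_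
  · rcases lt_trichotomy j i with h | rfl | h
    exacts [by rw [q_rel i hi j h, if_neg e, one_mul], rfl,
      by rw [q_rel j hj i h, if_neg fun c => e ((h1 i hi j hj).mpr c), one_mul]]
  · rcases lt_trichotomy (i ^^^ 1) i with h | h | h
    exacts [by rw [q_rel i hi _ h, if_pos rfl], absurd h (h2 i hi).2, by
      rw [q_rel _ (h2 i hi).1 i h, if_pos ((h1 i hi _ (h2 i hi).1).mp rfl), ← mul_assoc, zD_sq, one_mul]]
instance : Q.Normal := by
  have key : ∀ s < 2, gD (Nat.mul 2 s) ∈ Subgroup.normalizer Q := fun s hs =>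
    Subgroup.mem_normalizer_fintype fun n hn => conj_clo (by
      rintro _ (rfl | ⟨i, hi, rfl⟩)
      · rw [← zD_c, mul_inv_cancel_right]; exact z_mem
      · have h1 := allB_spec (allB_spec K1.cjB s hs) i hi
        rw [H16.force_eq] at h1
        rw [cjM_spec (rD _) (rq i) (R_ev rqz _) h1]
        exact qz_mem _) hn
  refine Subgroup.normalizer_eq_top_iff.mp (gens.eq_top fun x hx => ?_)
  interval_cases x
  exacts [key 0 (by norm_num), gens.inv 0 ▸ Subgroup.inv_mem _ (key 0 (by norm_num)), key 1 (by norm_num),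
    gens.inv 2 ▸ Subgroup.inv_mem _ (key 1 (by norm_num))]
theorem Q_ker : Q ≤ φ.ker := by
  have k : ∀ i, q i ∈ φ.ker := fun i => by
    by_cases hi : i < 12
    · exact kerB (rq i) (by simpa only [H16.force_eq] using allB_spec plQ i hi)
    · rw [q_triv i (by omega)]; exact Subgroup.one_mem _
  refine (Subgroup.closure_le _).mpr ?_
  rintro _ (rfl | ⟨i, -, rfl⟩)
  exacts [ev_mem fun i _ => k i, k i]

/-! ### orders -/

theorem stabH : stabilizer Γ (wv 1) = H := (H_max _ H_fix).resolve_right fun e => by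
  have h := MG_smul rt (v := 1) (by norm_num)
  have h1 : t • wv 1 = wv 1 := (e.ge (Subgroup.mem_top t) :)
  exact absurd (wv_crd.inj _ _ h.1 (by norm_num) (h.2.symm.trans h1)) (by decide +kernel)
theorem z_E : z ∈ E := by rw [z]; exact hE_mem 0
theorem cardA : Nat.card ↥(H ⊓ Subgroup.centralizer {z}) ≤ 283115520 := by
  let zH : H := ⟨z, E_le z_E⟩
  obtain ⟨hi, -, s, h1, h2⟩ := asc
  have p : MG.P w0 (wv w0) := MW_P.mpr ⟨by decide +kernel, rfl⟩
  have h3 : ∀ v, ∃ e : H, v ∈ s → e ∈ conjugatesOf zH ∧ MG.P v (e.1 • wv w0) := fun v => by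
    by_cases hv : v ∈ s
    · obtain ⟨c, rfl⟩ := (h2 v hv).2.2
      rw [cf, H16.force_eq, H16.force_eq]
      generalize unp 4 _ _ = u
      refine ⟨(ev gH u)⁻¹ * zH * (ev gH u)⁻¹⁻¹, fun _ => ⟨isConj_iff.mpr ⟨_, rfl⟩, ?_⟩⟩
      have := P_apW rH (MG.P_ap rz (P_apW rH p u)) (mulInvL 0 u [])
      rw [ev_mulInvL invH, ev_nil, mul_one, ← mul_smul, ← mul_smul, ← gH_ev] at this
      rwa [inv_inv]
    · exact ⟨1, fun h => absurd h hv⟩
  choose f hf using h3
  have h4 : 1771 ≤ (Subgroup.centralizer {zH}).index := by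
    rw [← card_conjugatesOf, Nat.card_coe_set_eq, ← h1, ← Set.ncard_coe_finset]
    exact Set.ncard_le_ncard_of_injOn f (fun v hv => (hf v hv).1)
      (fun v hv v' hv' e => MG.P_inj (hf v hv).2 (e ▸ (hf v' hv').2)) (Set.toFinite _)
  have h5 := (Subgroup.centralizer {zH}).card_mul_index
  rw [cardH] at h5
  have h6 : Nat.card ↥(H ⊓ Subgroup.centralizer {z}) ≤ Nat.card (Subgroup.centralizer {zH}) :=
    Nat.card_le_card_of_injective (fun c => ⟨⟨c.1, c.2.1⟩, Subgroup.mem_centralizer_singleton_iff.mpr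
      (Subtype.ext (Subgroup.mem_centralizer_singleton_iff.mp c.2.2))⟩) fun _ _ e =>
        Subtype.ext (congrArg (fun y => y.1.1) e)
  have := (Nat.mul_le_mul h6 h4).trans h5.le
  omega
theorem st_le : (stabilizer DD (wv 1)).map DD.subtype ≤ H ⊓ Subgroup.centralizer {z} := by
  rintro _ ⟨c, hc, rfl⟩
  exact ⟨stabH ▸ hc, DD_le c.2⟩
theorem cardD : Nat.card DD ≤ 77 * Nat.card ((stabilizer DD (wv 1)).map DD.subtype) := by
  rw [Subgroup.card_map_of_injective DD.subtype_injective, ← Nat.card_congr (orbitProdStabilizerEquivGroup DD (wv 1)),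
    Nat.card_prod, Nat.card_coe_set_eq]
  refine Nat.mul_le_mul_right _ ((Set.ncard_le_ncard (t := plv 112 P '' Set.Iio 77) ?_
    ((Set.finite_Iio 77).image _)).trans (ncard_image_Iio fun i hi j hj => ex.choose_spec.2.2 i hi j hj).le)
  rintro _ ⟨c, rfl⟩
  exact ⟨φ c 0, rep.lt c (by norm_num : 0 < 77), by rw [← lab c 0 (by norm_num), lab0]⟩

noncomputable def gP (i : ℕ) : φ.range := φ.rangeRestrict (gD i)
theorem repP : H17.Rep gP D φ.range.subtype := ⟨good, ⟨fun i => by rw [gP, gP, ← map_inv, ← gens.inv]; rfl,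
  fun i hi => by rw [gP, gens.triv i hi, map_one], fun c => by
    obtain ⟨d, rfl⟩ := φ.rangeRestrict_surjective c
    obtain ⟨u, rfl⟩ := gens.surj d
    exact ⟨u, (map_ev' _ (fun _ => rfl) u).symm⟩⟩, rep.map⟩

theorem shp : Nat.card DD = 24576 * 887040 ∧ Shp DD := by
  have : Fact (Nat.Prime 3) := ⟨Nat.prime_three⟩
  have : Finite φ.range := Finite.of_surjective _ φ.rangeRestrict_surjective
  refine shp_of xs.1 (xs.2.of_hom Q.subtype Q.subtype_injective (fun x => x.2) fun y hy => ⟨⟨y, hy⟩, rfl⟩) Q_ker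
    (kerB rw' pl.2.2.2.2.2) (orderOf_eq_prime (isOne_spec (R_pow rw' 3) dQ.2.2.1) fun e =>
      MG_ne (g := w.1) rw' (by norm_num) dQ.2.2.2.1 (congrArg Subtype.val e)) (a := gD 2) ?_
    (cardD.trans (Nat.mul_le_mul_left 77 ((Subgroup.card_le_of_le st_le).trans cardA))) ?_ fun hc => ?_
  · have := MD.eq_of (R_m3 (R_m3 r2 rw' r3') rw' MD.R_one) (R_ev rqz _) dQ.2.2.2.2.2.2
    rw [mul_one, ← mul_assoc, show gD 3 = (gD 2)⁻¹ from gens.inv 2] at this
    exact this ▸ qz_mem _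
  · exact low.2.2.1 ▸ Subgroup.card_top (G := φ.range) ▸ low_le repP (A := ⊤) (fun _ _ _ _ => trivial) low.1
  · have hF := repP.faith' ⟨inferInstance, by rw [Subgroup.card_top, hc]⟩ low.1 low.2.2.1 low.2.2.2.2.1
    refine ⟨ev gP [0, 0, 3, 0, 2], fun N hN h => mem_normal_of_prim repP hF (fun j hj => ?_) low.2.2.2.2.2.2.1 N h
      (hF.pow_eq_one repP low.2.2.2.2.2.2.2) (by decide +kernel), fun L hL h => ?_⟩
    · exact let ⟨c, e⟩ := trans j hj; ⟨φ.rangeRestrict c, e⟩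
    · refine low.2.2.2.1 ▸ low_le repP (fun l hl u hu => ?_) low.2.1
      have h1 := subsetB_sound (allL_true low.2.2.2.2.2.1 l hl) u hu
      rw [substL_eq, List.mem_map] at h1
      obtain ⟨v, -, rfl⟩ := h1
      have k : ∀ u, ev gP u ∈ L → ev gP (0 :: (u ++ [1])) ∈ L := fun u hu => by
        rw [ev_cons, ev_append, ev_cons, ev_nil, mul_one, show gP 1 = (gP 0)⁻¹ from repP.gens.inv 0, ← mul_assoc]
        exact hL.conj_mem _ hu _
      have h2 : ev gP [3, 1, 2, 1, 1] ∈ L := by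
        rw [show [3, 1, 2, 1, 1] = mulInvL 0 [0, 0, 3, 0, 2] [] by decide +kernel, ev_mulInvL (k := 0) repP.gens.inv, ev_nil, mul_one]
        exact L.inv_mem h
      rw [← ev_sub]
      refine ev_mem fun x _ => nth_prop (P := fun u => ev gP u ∈ L) (d := []) (l := sg) L.one_mem (fun u hu => ?_) x
      simp only [sg, List.mem_cons, List.not_mem_nil, or_false] at hu
      rcases hu with rfl | rfl | rfl | rfl
      exacts [h, h2, k _ h, k _ h2]

theorem A_le : H ⊓ Subgroup.centralizer {z} ≤ DD := by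
  have h1 := cardD
  rw [shp.1] at h1
  rw [← Subgroup.eq_of_le_of_card_ge st_le (cardA.trans (by omega))]
  exact Subgroup.map_subtype_le _

end Cfsg.Agent.H16.K3
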