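import Cfsg.Agent.H16.K3

/-! The subgroup is the whole centraliser. -/

set_option autoImplicit false
set_option maxRecDepth 100000

namespace Cfsg.Agent.H16.K3

open H17 J4M J4G MulAction Mdl K1 K2
open scoped Pointwise

/-! ### the centraliser -/

theorem E_u {e : Γ} (he : e ∈ E) : e • wv 3778 = wv 3778 ∨ e • wv 3778 = wv 3779 := by
  have : E ≤ stabilizer Γ ({wv 3778, wv 3779} : Set V112) := (Subgroup.closure_le _).mpr fun c hc => by
    obtain ⟨i, hi, rfl⟩ := mem_lE.mp hc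
    have h := allB_spec uB i hi
    rw [H16.force_eq, H16.force_eq, orB_iff, andB_iff, andB_iff, Nat.beq_eq, Nat.beq_eq, Nat.beq_eq, Nat.beq_eq] at h
    change hE i • _ = _
    rw [Set.smul_set_insert, Set.smul_set_singleton, (MG_smul (rE i) (by norm_num)).2, (MG_smul (rE i) (by norm_num)).2]
    rcases h with h | h <;> rw [h.1, h.2]
    exact Set.pair_comm _ _
  have h : e • wv 3778 ∈ e • ({wv 3778, wv 3779} : Set V112) := Set.smul_mem_smul_set (Set.mem_insert _ _)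
  rwa [show e • ({wv 3778, wv 3779} : Set V112) = _ from this he] at h

theorem mem_fstE {u : List ℕ} : ∀ {L : List En}, u ∈ fstE L → u = [] ∨ ∃ p ∈ L, p.1 = u
  | [], h => Or.inl (List.mem_singleton.mp h)
  | e :: L, h => by
    rcases List.mem_cons.mp (show u ∈ e.1 :: fstE L from h) with rfl | h
    · exact Or.inr ⟨e, List.mem_cons_self, rfl⟩
    · exact (mem_fstE h).imp id fun ⟨p, hp, e'⟩ => ⟨p, List.mem_cons_of_mem _ hp, e'⟩

theorem dB_spec {c : ℕ} {g e : Γ} (r : MG.R c g) {L : List En} (h : dB c L = true) (he : e ∈ E) (he' : g⁻¹ * e * g ∈ E)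
    (h1 : e ≠ 1) : ∃ p ∈ L, ev hE p.1 = e := by
  rw [dB, H16.force_eq, H16.force_eq] at h
  have p1 := MG.P_ap r (MW_P.mpr ⟨by norm_num, rfl⟩ : MG.P 3778 (wv 3778))
  have p2 := MG.P_ap r (MW_P.mpr ⟨by norm_num, rfl⟩ : MG.P 3779 (wv 3779))
  obtain ⟨v, u, p, e1, k⟩ := dfs_spec rE 11 _ [] (by rwa [ev_nil, one_smul]) h e
    (mem_prods hE_sq (fun i j => E_comm _ (hE_mem i) _ (hE_mem j)) (fun a ha => mem_lE.mp ha) he)
  rw [ev_nil, mul_one] at e1
  rw [e1, ← mul_smul, show e * g = g * (g⁻¹ * e * g) by group, mul_smul] at p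
  rcases orB_iff.mp k with k | k
  · refine absurd (orB_iff.mpr ?_) (notB_iff.mp k)
    rcases E_u he' with e | e <;> rw [e] at p
    exacts [Or.inl (Nat.beq_eq.mpr (MG.P_inj p p1)), Or.inr (Nat.beq_eq.mpr (MG.P_inj p p2))]
  · rcases mem_fstE (memW_sound k) with rfl | ⟨p, hp, rfl⟩
    exacts [absurd e1.symm h1, ⟨p, hp, e1⟩]

theorem eB_spec {c : ℕ} {L : List En} (h : eB c L = true) {p : En} (hp : p ∈ L) : Nat.blt p.2.2 77 = true ∧
    cjM oW (evM oW SH p.2.1) (evM oW CE p.1) cE0 = true ∧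
    allB 112 (fun j => iffB (tb (H17.nth 0 P j) p.2.2) (tb (apW oW SH p.2.1 (oW.ap c 1)) j)) = true := by
  have := andB_iff.mp (allL_true h p hp)
  have h2 := andB_iff.mp this.2
  have h3 := h2.1
  have h4 := h2.2
  rw [H16.force_eq, H16.force_eq] at h3
  rw [H16.force_eq] at h4
  exact ⟨this.1, h3, h4⟩

theorem dAll (j : ℕ) (hj : j < 7) (h0 : j ≠ 0) : dB (H16.nth oW.one CG j) (H17.nth [] en j) = true := by
  interval_cases j
  exacts [absurd rfl h0, d1, d2, d3, d4, d5, d6]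

theorem d_smul (d : DD) (v : V112) : d • v = d.1 • v := rfl

theorem step {n : ℕ} {g : Γ} (r : MG.R n g) {L : List En} (d : dB n L = true) (hB : eB n L = true) {h1 h2 : Γ}
    (m1 : h1 ∈ H) (m2 : h2 ∈ H) (hc : h1 * g * h2 ∈ Subgroup.centralizer {z}) : h1 * g * h2 ∈ DD := by
  have cz := Subgroup.mem_centralizer_singleton_iff.mp hc
  have n1 : h1⁻¹ * z * h1⁻¹⁻¹ ∈ E := (Subgroup.mem_normalizer_iff.mp (H_norm (H.inv_mem m1)) z).mp z_E
  have n2 : h2 * z * h2⁻¹ ∈ E := (Subgroup.mem_normalizer_iff.mp (H_norm m2) z).mp z_E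
  obtain ⟨p, hp, e1⟩ := dB_spec r d n1 (by
    rwa [show g⁻¹ * (h1⁻¹ * z * h1⁻¹⁻¹) * g = g⁻¹ * h1⁻¹ * (z * (h1 * g * h2)) * h2⁻¹ by group, ← cz,
      show g⁻¹ * h1⁻¹ * (h1 * g * h2 * z) * h2⁻¹ = h2 * z * h2⁻¹ by group]) (fun e => z_ne (by
      rw [mul_inv_eq_one, mul_eq_left] at e; exact e))
  have h := eB_spec hB hp
  have k1 := cjM_spec (R_ev rH p.2.1) (R_ev rE p.1) rz h.2.1
  have k2 := MW_P.mp (P_apW rH (MG.P_ap r (MW_P.mpr ⟨by norm_num, rfl⟩ : MG.P 1 (wv 1))) p.2.1)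
  have km : ev hH p.2.1 ∈ H := ev_mem fun i _ => hH_mem i
  obtain ⟨d, hd⟩ := trans _ (Nat.blt_eq.mp h.1)
  have k3 : d.1 • wv 1 = ev hH p.2.1 • g • wv 1 :=
    by rw [← d_smul, ← k2.2, ← lab0, lab d 0 (by norm_num), hd]; exact plv_eq h.2.2
  rw [e1] at k1
  clear h k2 e1
  generalize ev hH p.2.1 = k at k1 k3 km
  have s1 : h1 * k⁻¹ ∈ DD := A_le ⟨H.mul_mem m1 (H.inv_mem km), Subgroup.mem_centralizer_singleton_iff.mpr (by
    calc h1 * k⁻¹ * z = h1 * k⁻¹ * (k * (h1⁻¹ * z * h1⁻¹⁻¹) * k⁻¹) := by rw [k1]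
      _ = _ := by group)⟩
  have s2 := DD.mul_mem s1 d.2
  have s3 : (h1 * k⁻¹ * d)⁻¹ * (h1 * g * h2) ∈ DD := A_le ⟨stabH.le (mem_stabilizer_iff.mpr (by
    rw [mul_smul, inv_smul_eq_iff, mul_smul _ d.1, k3, mul_smul, mul_smul,
      show h2 • wv 1 = wv 1 from H_fix m2, mul_smul, inv_smul_smul])),
    Subgroup.mul_mem _ (Subgroup.inv_mem _ (DD_le s2)) hc⟩
  have := DD.mul_mem s2 s3
  rwa [mul_inv_cancel_left] at this

theorem cent : Subgroup.centralizer {z} = DD := le_antisymm (fun c hc => by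
  obtain ⟨⟨j, hj⟩, h1, m1, h2, m2, rfl⟩ := cover c
  by_cases h0 : j = 0
  · subst h0
    exact A_le ⟨H.mul_mem (H.mul_mem m1 H.one_mem) m2, hc⟩
  · exact step (rG j) (dAll j hj h0) (allB_spec eE j hj) m1 m2 hc) DD_le

theorem main : orderOf z = 2 ∧ Shp (Subgroup.centralizer ({z} : Set Γ)) := by
  have : Fact (Nat.Prime 2) := ⟨Nat.prime_two⟩
  exact ⟨orderOf_eq_prime (by rw [sq, z]; exact hE_sq 0) z_ne, cent ▸ shp.2⟩

end Cfsg.Agent.H16.K3
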