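import Cfsg.Agent.H16.MB
import Cfsg.Agent.H13.Simple

/-! Orthogonal groups over `𝔽₂` in the bit matrix model; large extraspecial subgroups. -/

set_option autoImplicit false

namespace Cfsg.Agent.H16

open Cfsg MulAction Matrix Mdl
open scoped commutatorElement

section bit
variable {ι : Type} [Fintype ι] [DecidableEq ι] {n : ℕ} (e : ι ≃ Fin n) {mul ap : ℕ → ℕ → ℕ} {one : ℕ} (b : B2 n mul ap one)
  (Q : (ι → ZMod 2) → ZMod 2)

noncomputable def isoP : isometryGroup (ZMod 2) Q →* Equiv.Perm (ι → ZMod 2) :=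
  permOf ((Units.coeHom _).comp (isometryGroup (ZMod 2) Q).subtype)
noncomputable def OmP : Subgroup (Equiv.Perm (ι → ZMod 2)) := (Omega (ZMod 2) Q).map (isoP Q)
noncomputable def omEquiv : Omega (ZMod 2) Q ≃* OmP Q :=
  Subgroup.equivMapOfInjective _ _ (permOf_inj _ (Units.val_injective.comp Subtype.val_injective))
instance : Finite (OmP Q) := Finite.Set.subset Set.univ (Set.subset_univ _)

theorem inL_omega {S : List (ℕ × ℕ)} {T : List ℕ}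
    (h : ∀ p ∈ S, (ebB n p.1 = true ∧ bmat e p.1 * bmat e p.2 = 1 ∧ bmat e p.2 * bmat e p.1 = 1 ∧
      ∀ x < 2 ^ n, Q (bvec e (ap p.1 x)) = Q (bvec e x)))
    (h' : andB (invP n mul one S) (allL T fun c => anyP S fun x x' => anyP S fun y y' =>
      Nat.beq c (mul (mul (mul x y) x') y')) = true) : (b.mdl (crd_bvec e)).InL (OmP Q) T := fun c hc => by
  have h1 := inL_isometry e b Q h
  have h2 := b.prL (crd_bvec e) (andB_iff.mp h').1
  obtain ⟨x, hx, q⟩ := anyP_iff.mp (allL_iff.mp (andB_iff.mp h').2 c hc)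
  obtain ⟨y, hy, q⟩ := anyP_iff.mp q
  obtain ⟨_, ⟨g, -, rfl⟩, r⟩ := h1 _ (List.mem_map_of_mem hx)
  obtain ⟨_, ⟨k, -, rfl⟩, s⟩ := h1 _ (List.mem_map_of_mem hy)
  obtain ⟨_, -, r1, r2⟩ := h2 x hx
  obtain ⟨_, -, s1, s2⟩ := h2 y hy
  obtain rfl := R_fun r r1
  obtain rfl := R_fun s s1
  refine ⟨_, ⟨⁅g, k⁆, Subgroup.commutator_mem_commutator (Subgroup.mem_top g) (Subgroup.mem_top k), rfl⟩, ?_⟩
  rw [Nat.eq_of_beq_eq_true q, map_commutatorElement]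
  exact Mdl.R_mul _ (Mdl.R_mul _ (Mdl.R_mul _ r s) r2) s2

end bit

theorem om_eq_pom {ι : Type} [Fintype ι] [DecidableEq ι] {Q : QuadraticForm (ZMod 2) (ι → ZMod 2)} (hQ : H13.ND Q)
    (hG : H13.Good Q) (hn : 3 ≤ Module.finrank (ZMod 2) (ι → ZMod 2)) : Nonempty (Omega (ZMod 2) Q ≃* H13.POm Q) :=
  ⟨(H13.omegaEquiv Q).trans ((QuotientGroup.quotientMulEquivOfEq (hQ.center_Om_eq_bot hG hn (.inl rfl))).trans
    QuotientGroup.quotientBot).symm⟩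

theorem card_om8 : Nat.card (Omega (ZMod 2) (quadFormPlus 4 (ZMod 2))) = 174182400 := by
  obtain ⟨e⟩ := om_eq_pom (H13.nd_QPlus (m := 4) (F := ZMod 2)) (.inr (.inl (by simp))) (by simp)
  have := H13.nd_QPlus.card_POm_plus (.inr (.inl (by simp))) (H13.isPlus_QPlus (F := ZMod 2) 4) (m := 4) (by omega) (by simp)
  rw [← Nat.card_congr e.toEquiv] at this
  rw [← H13.coe_QPlus]
  simpa [Finset.prod_range_succ] using this

theorem simple_om8 : IsSimpleGroup (Omega (ZMod 2) (quadFormPlus 4 (ZMod 2))) := by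
  obtain ⟨e⟩ := om_eq_pom (H13.nd_QPlus (m := 4) (F := ZMod 2)) (.inr (.inl (by simp))) (by simp)
  have := (H13.nd_QPlus (m := 4) (F := ZMod 2)).isSimpleGroup_POm (by simp)
  exact e.isSimpleGroup

theorem large_es {G H : Type*} [Group G] [Group H] {K C Q : Subgroup G} [Finite C] (e : K ≃* H) {t : G} (ht : t ∈ K)
    (hc : K ⊓ Subgroup.centralizer {t} = C) (ho : orderOf t = 2) (h : ESData Q t) (hQ : Q ≤ C) {k : ℕ} (h1 : Nat.card Q = 2 ^ k)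
    {A : Type*} [Group A] [IsSimpleGroup A] (θ : C →* A) (hs : Function.Surjective θ) (hk : ∀ x : C, x.1 ∈ Q → θ x = 1)
    (hC : Nat.card C = 2 ^ k * Nat.card A) (h6 : 3 ∣ Nat.card A) (hd : ∃ d ∈ C, ∃ x ∈ Q, d * d * x ≠ x * (d * d))
    (hu : ∃ u ∈ K, u * t * u⁻¹ ∈ Q ∧ u * t * u⁻¹ ≠ t) :
    ∃ z : H, orderOf z = 2 ∧ ∃ (Q : Subgroup (Subgroup.centralizer ({z} : Set H))) (_ : Q.Normal),
      generalizedFittingSubgroup (Subgroup.centralizer ({z} : Set H)) = Q ∧ IsExtraspecial 2 Q ∧ Nat.card Q = 2 ^ k ∧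
      Nonempty (Subgroup.centralizer ({z} : Set H) ⧸ Q ≃* A) ∧ ∃ g : H, (∃ hq : g * z * g⁻¹ ∈ Subgroup.centralizer ({z} : Set H),
        (⟨g * z * g⁻¹, hq⟩ : Subgroup.centralizer ({z} : Set H)) ∈ Q) ∧ g * z * g⁻¹ ≠ z := by
  obtain ⟨f, hf⟩ := cent_equiv e ⟨t, ht⟩ hc
  obtain ⟨a0, a1, a2, a3, a4⟩ := es_quot h hQ h1 θ hs hk hC h6 hd f
  obtain ⟨u, hu, h7, h8⟩ := hu
  have q : ((e.symm (e ⟨u, hu⟩ * e ⟨t, ht⟩ * (e ⟨u, hu⟩)⁻¹) : K) : G) = u * t * u⁻¹ := by simp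
  refine ⟨e ⟨t, ht⟩, by rw [MulEquiv.orderOf_eq, Subgroup.orderOf_mk, ho], _, inferInstance, a4, a1, a2, a3, e ⟨u, hu⟩,
    ⟨?_, (a0 _).mpr ?_⟩, fun q' => h8 (by rw [← q, q']; simp)⟩
  · rw [Subgroup.mem_centralizer_singleton_iff, ← map_inv, ← map_mul, ← map_mul, ← map_mul, ← map_mul]
    exact congrArg e (Subtype.ext (h.comm _ h7).symm)
  · rwa [hf, q]

end Cfsg.Agent.H16
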