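import Cfsg.Agent.H25.Hopf

/-! Uniqueness of stem extensions whose kernel is as large as the multiplier allows. -/

set_option autoImplicit false

namespace Cfsg.Agent.H16

open Cfsg H25 Subgroup

theorem comm_equiv_of_mult {P L G : Type*} [Group P] [Group L] [Group G] {ξ : P →* G} {π : L →* G} (hξ : Function.Surjective ξ)
    (hc : π.ker ≤ center L) (hp : commutator L = ⊤) (p : P →* L) (h : ∀ a, π (p a) = ξ a) [Finite (mult ξ)]
    (hn : Nat.card (mult ξ) ≤ Nat.card π.ker) : Nonempty (commutator P ≃* L) := by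
  have e : mult π = π.ker := by rw [mult, hp, inf_top_eq]
  have hs := multMap_surj hξ hc p h
  have hb := (Nat.bijective_iff_surjective_and_card _).2 ⟨hs, le_antisymm (e ▸ hn) (Nat.card_le_card_of_surjective _ hs)⟩
  refine ⟨MulEquiv.ofBijective (p.comp (commutator P).subtype) ⟨(injective_iff_map_eq_one _).2 fun x hx => ?_, fun y => ?_⟩⟩
  · have h1 : p x = 1 := hx
    have := hb.1 (a₁ := ⟨x, by rw [mem_mult, ← h, h1, map_one]; exact ⟨rfl, x.2⟩⟩) (a₂ := 1) (Subtype.ext (by simpa [multMap_coe] using h1))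
    exact Subtype.ext (congrArg (fun z : mult ξ => (z : P)) this)
  · obtain ⟨a, ha, rfl⟩ := exists_mem_commutator_map hc p (fun y => let ⟨a, e⟩ := hξ (π y); ⟨a, (h a).trans e⟩)
      (y := y) (hp ▸ mem_top y)
    exact ⟨⟨a, ha⟩, rfl⟩

/-- two perfect central extensions with kernels of exponent `m` and order `n` are isomorphic when every quotient of
exponent `m` of the multiplier has order at most `n` -/
theorem stem_unique {L₁ L₂ G A R : Type*} [Group L₁] [Group L₂] [Group G] [CommGroup A] [Finite R] (hA : HasSchurMultiplier G A)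
    {π₁ : L₁ →* G} {π₂ : L₂ →* G} (s₁ : Function.Surjective π₁) (s₂ : Function.Surjective π₂)
    (c₁ : π₁.ker ≤ center L₁) (c₂ : π₂.ker ≤ center L₂) (p₁ : commutator L₁ = ⊤) (p₂ : commutator L₂ = ⊤) {m : ℕ}
    (e₁ : ∀ x ∈ π₁.ker, x ^ m = 1) (e₂ : ∀ x ∈ π₂.ker, x ^ m = 1) (f : R → A) (hf : ∀ x, ∃ y r, x = y ^ m * f r)
    (n₁ : Nat.card R ≤ Nat.card π₁.ker) (n₂ : Nat.card R ≤ Nat.card π₂.ker) : Nonempty (L₁ ≃* L₂) := by
  let P := (π₁.comp (MonoidHom.fst L₁ L₂)).eqLocus (π₂.comp (MonoidHom.snd L₁ L₂))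
  let q₁ := (MonoidHom.fst L₁ L₂).comp P.subtype
  let q₂ := (MonoidHom.snd L₁ L₂).comp P.subtype
  have hs : Function.Surjective (π₁.comp q₁) := fun g =>
    let ⟨x, hx⟩ := s₁ g; let ⟨y, hy⟩ := s₂ g; ⟨⟨(x, y), hx.trans hy.symm⟩, hx⟩
  obtain ⟨g, hg⟩ := exists_surj_mult hA (ξ := π₁.comp q₁) ⟨hs, fun x hx => mem_center_iff.2 fun y => Subtype.ext
    (Prod.ext (mem_center_iff.1 (c₁ hx) _) (mem_center_iff.1 (c₂ (x.2.symm.trans hx)) _))⟩
  have hr : Function.Surjective fun r => g (f r) := fun z => by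
    obtain ⟨x, rfl⟩ := hg z
    obtain ⟨y, r, rfl⟩ := hf x
    refine ⟨r, ?_⟩
    rw [map_mul, map_pow, show g y ^ m = 1 from Subtype.ext (Subtype.ext (Prod.ext (e₁ _ (g y).2.1)
      (e₂ _ ((g y).1.2.symm.trans (g y).2.1)))), one_mul]
  have := Finite.of_surjective _ hr
  have hn := Nat.card_le_card_of_surjective _ hr
  obtain ⟨a⟩ := comm_equiv_of_mult hs c₁ p₁ q₁ (fun _ => rfl) (hn.trans n₁)
  obtain ⟨b⟩ := comm_equiv_of_mult hs c₂ p₂ q₂ (fun x => x.2.symm) (hn.trans n₂)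
  exact ⟨a.symm.trans b⟩

theorem ker_quot {L G : Type*} [Group L] [Group G] {N : Subgroup L} [N.Normal] (e : L ⧸ N ≃* G) :
    (e.toMonoidHom.comp (QuotientGroup.mk' N)).ker = N :=
  Subgroup.ext fun x => e.map_eq_one_iff.trans (QuotientGroup.eq_one_iff x)

end Cfsg.Agent.H16
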